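import Cfsg.Agent.Screen.CosetEnum.Fi23Mult.Bound
import Cfsg.Agent.FGS2.SchurCovers

/-!
# The Schur multiplier of Fi23 is trivial
-/

set_option autoImplicit false
set_option maxRecDepth 20000

namespace Cfsg.Agent.Screen.CosetEnum.Fi23Mult

open Cfsg.Agent.Screen.CosetEnum
open scoped commutatorElement

theorem commutator_mul_central {G : Type*} [Group G] (a b : G) {u v : G} (hu : u ∈ Subgroup.center G)
    (hv : v ∈ Subgroup.center G) : ⁅a * u, b * v⁆ = ⁅a, b⁆ := by
  have hu' := fun g => (Subgroup.mem_center_iff.1 hu g).symm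
  have hv' := fun g => (Subgroup.mem_center_iff.1 hv g).symm
  rw [commutatorElement_def, commutatorElement_def]
  calc a * u * (b * v) * (a * u)⁻¹ * (b * v)⁻¹
      = a * (u * b) * (v * u⁻¹) * a⁻¹ * v⁻¹ * b⁻¹ := by group
    _ = a * b * (u * v * u⁻¹) * a⁻¹ * v⁻¹ * b⁻¹ := by rw [hu' b]; group
    _ = a * b * (v * a⁻¹) * v⁻¹ * b⁻¹ := by rw [hu' v, mul_inv_cancel_right]; group
    _ = a * b * a⁻¹ * b⁻¹ := by rw [hv' a⁻¹]; group

theorem evalW_scale {E : Type*} [Group E] (y : ℕ → E) {d : E} (hd : ∀ g, g * d = d * g) :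
    ∀ w : List ℕ, (∀ x ∈ w, x < 10) →
      evalW (fun x => if x < 10 then y x * d else 1) w = evalW y w * d ^ w.length := by
  intro w
  induction w with
  | nil => simp [evalW]
  | cons a w ih =>
    intro hw
    rw [evalW, evalW, ih (fun x hx => hw x (List.mem_cons_of_mem _ hx)), if_pos (hw a List.mem_cons_self),
      List.length_cons, pow_succ, mul_assoc, mul_assoc]
    congr 1
    rw [← mul_assoc, ← mul_assoc]
    congr 1
    exact ((show Commute (y a) d from hd _).pow_right _).eq.symm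

/-- A central extension of Fi23 by involutive lifts splits. -/
theorem exists_section {E : Type*} [Group E] [Finite E] {y : ℕ → E} (π : E →* Cfsg.Spor.Fi23)
    (hsq : ∀ x, y x * y x = 1)
    (hout : ∀ x, 10 ≤ x → y x = 1) (hπy : ∀ x < 10, π (y x) = PresFi23.gens x)
    (hc : ∀ a b, a < 10 → b < 10 → braid23 a b = false → a ≠ b → y a * y b = y b * y a)
    (hb : ∀ a b, a < 10 → b < 10 → braid23 a b = true → y a * y b * y a = y b * y a * y b)
    (hcent : ∀ g : E, π g = 1 → g ∈ Subgroup.center E) :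
    ∃ ψ : Cfsg.Spor.Fi23 →* E, ∀ g, π (ψ g) = g := by
  have hev : ∀ w : List ℕ, (∀ x ∈ w, x < 10) → π (evalW y w) = evalW PresFi23.gens w := by
    intro w
    induction w with
    | nil => simp [evalW]
    | cons a w ih =>
      intro hw
      rw [evalW, evalW, map_mul, ih (fun x hx => hw x (List.mem_cons_of_mem _ hx)), hπy a (hw a List.mem_cons_self)]
  have h1 := spider_eq_one π hsq hout hπy hc hb hcent
  set d := evalW y e7word with hd
  have hπd : π d = 1 := by
    rw [hd, hev _ (by decide +kernel)]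
    exact Fi23Ord.eq_one (by decide +kernel) (by decide +kernel)
  have hdc : ∀ g, g * d = d * g := fun g => Subgroup.mem_center_iff.1 (hcent d hπd) g
  have hd2 : d * d = 1 := by
    rw [hd, ← evalW_append]
    exact eq_one_of_reducesTo hsq hc hb movesC _ (by decide +kernel)
  have hdp : ∀ k, d ^ (2 * k) = 1 := fun k => by rw [pow_mul, pow_two, hd2, one_pow]
  set z : ℕ → E := fun x => if x < 10 then y x * d else 1 with hz
  have hzsq : ∀ x, z x * z x = 1 := fun x => by
    simp only [hz]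
    split
    · rw [mul_assoc, ← mul_assoc d, ← hdc, mul_assoc, hd2, mul_one, hsq]
    · exact one_mul 1
  have hrels : ∀ w ∈ PresFi23.relList, evalW z w = 1 := by
    intro w hw
    have h : (w.all (fun x => Nat.blt x 10) = true) ∧
        ((coxOK w = true ∧ w.length % 2 = 0) ∨ w = spider ∨ w = e7word) :=
      of_decide_eq_true (List.all_eq_true.1
        (show PresFi23.relList.all (fun w => decide ((w.all (fun x => Nat.blt x 10) = true) ∧
          ((coxOK w = true ∧ w.length % 2 = 0) ∨ w = spider ∨ w = e7word))) = true by decide +kernel) w hw)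
    have hwl : ∀ x ∈ w, x < 10 := fun x hx => by simpa [Nat.blt_eq] using List.all_eq_true.1 h.1 x hx
    rw [hz, evalW_scale y hdc w hwl]
    rcases h.2 with ⟨hk, heven⟩ | rfl | rfl
    · obtain ⟨k, hk2⟩ := Nat.dvd_of_mod_eq_zero heven
      rw [coxOK_spec hsq hc hb hk, hk2, hdp, one_mul]
    · rw [h1, show spider.length = 2 * 45 from rfl, hdp, one_mul]
    · rw [← hd, show e7word.length = 2 * 31 + 1 from rfl, pow_succ, hdp, one_mul, hd2]
  obtain ⟨ψ, hψ⟩ := PresFi23.exists_hom z hzsq hrels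
  refine ⟨ψ, fun g => ?_⟩
  have hg : g ∈ Subgroup.closure (Set.range PresFi23.gens) := PresFi23.gens_top ▸ Subgroup.mem_top g
  induction hg using Subgroup.closure_induction with
  | mem a ha =>
    obtain ⟨x, rfl⟩ := ha
    rcases Nat.lt_or_ge x 10 with hx | hx
    · rw [hψ x hx]
      simp only [hz, if_pos hx]
      rw [map_mul, hπy x hx, hπd, mul_one]
    · rw [PresFi23.gens_out x hx, map_one, map_one]
  | one => rw [map_one, map_one]
  | mul a b _ _ ha hb' => rw [map_mul, map_mul, ha, hb']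
  | inv a _ ha => rw [map_inv, map_inv, ha]

theorem stem_trivial (Γ : Type) [Group Γ] [Finite Γ] (σ : Γ →* Cfsg.Spor.Fi23) (hσ : Cfsg.IsStemExtension σ) :
    σ.ker = ⊥ := by
  obtain ⟨c, L, hcker, hσL, hL2, hLc, hLb⟩ := exists_lifts hσ.1 hσ.2.1
  have hcz : c ∈ Subgroup.center Γ := hσ.2.1 hcker
  set k := orderOf c with hk
  have hk0 : 0 < k := orderOf_pos c
  haveI : NeZero (2 * k) := ⟨by omega⟩
  set γ : Multiplicative (ZMod (2 * k)) := Multiplicative.ofAdd 1 with hγ
  have hγo : orderOf γ = 2 * k := by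
    rw [hγ, orderOf_ofAdd_eq_addOrderOf, ZMod.addOrderOf_one]
  set n : Γ × Multiplicative (ZMod (2 * k)) := (c, γ⁻¹ * γ⁻¹) with hn
  set N := Subgroup.zpowers n with hN
  haveI : N.Normal := ⟨fun m hm g => by
    obtain ⟨i, rfl⟩ := Subgroup.mem_zpowers_iff.1 hm
    have hcc : g.1 * (n ^ i).1 = (n ^ i).1 * g.1 := by
      rw [Prod.pow_fst]
      exact Subgroup.mem_center_iff.1 (zpow_mem hcz i) g.1
    have : g * n ^ i * g⁻¹ = n ^ i := by
      refine Prod.ext ?_ ?_
      · simp only [Prod.fst_mul, Prod.fst_inv, hcc, mul_inv_cancel_right]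
      · simp [mul_comm]
    rw [this]
    exact hm⟩
  set mk := QuotientGroup.mk' N with hmk
  let y : ℕ → (Γ × Multiplicative (ZMod (2 * k))) ⧸ N := fun x => if x < 10 then mk (L x, γ⁻¹) else 1
  have hπN : N ≤ (σ.comp (MonoidHom.fst Γ (Multiplicative (ZMod (2 * k))))).ker := by
    rw [hN, Subgroup.zpowers_le, MonoidHom.mem_ker]
    exact MonoidHom.mem_ker.1 hcker
  set π := QuotientGroup.lift N (σ.comp (MonoidHom.fst Γ (Multiplicative (ZMod (2 * k))))) hπN with hπ
  have hπmk : ∀ p : Γ × Multiplicative (ZMod (2 * k)), π (mk p) = σ p.1 := fun p => rfl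
  have hsq : ∀ x, y x * y x = 1 := fun x => by
    simp only [y]
    split
    · rename_i hx
      rw [← map_mul]
      refine (QuotientGroup.eq_one_iff _).2 ?_
      rw [Prod.mk_mul_mk, hL2 x hx, ← hn]
      exact Subgroup.mem_zpowers n
    · exact one_mul 1
  have hout : ∀ x, 10 ≤ x → y x = 1 := fun x hx => if_neg (by omega)
  have hπy : ∀ x < 10, π (y x) = PresFi23.gens x := fun x hx => by
    simp only [y, if_pos hx, hπmk]
    exact hσL x hx
  have hcentral : ∀ g, π g = 1 → g ∈ Subgroup.center ((Γ × Multiplicative (ZMod (2 * k))) ⧸ N) := by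
    intro g hg
    obtain ⟨p, rfl⟩ := QuotientGroup.mk'_surjective N g
    rw [← hmk, hπmk] at hg
    rw [Subgroup.mem_center_iff]
    intro h
    obtain ⟨q, rfl⟩ := QuotientGroup.mk'_surjective N h
    rw [← hmk, ← map_mul, ← map_mul]
    congr 1
    exact Prod.ext (Subgroup.mem_center_iff.1 (hσ.2.1 (MonoidHom.mem_ker.2 hg)) q.1) (mul_comm _ _)
  obtain ⟨ψ, hψ⟩ := exists_section π hsq hout hπy
    (fun a b ha hb h _ => by
      simp only [y, if_pos ha, if_pos hb, ← map_mul, Prod.mk_mul_mk, hLc a b ha hb h])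
    (fun a b ha hb h => by
      simp only [y, if_pos ha, if_pos hb, ← map_mul, Prod.mk_mul_mk, hLb a b ha hb h])
    hcentral
  have hcomm : ∀ m ∈ commutator Γ, mk (m, 1) ∈ ψ.range := by
    intro m hm
    have h2 : (mk.comp (MonoidHom.inl Γ (Multiplicative (ZMod (2 * k))))) m ∈ ψ.range := by
      rw [← Subgroup.mem_comap]
      refine (?_ : commutator Γ ≤ _) hm
      rw [commutator_eq_closure, Subgroup.closure_le]
      rintro _ ⟨a, b, rfl⟩
      rw [SetLike.mem_coe, Subgroup.mem_comap, map_commutatorElement]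
      generalize (mk.comp (MonoidHom.inl Γ (Multiplicative (ZMod (2 * k))))) a = p
      generalize (mk.comp (MonoidHom.inl Γ (Multiplicative (ZMod (2 * k))))) b = q
      refine ⟨⁅π p, π q⁆, ?_⟩
      have hu : (ψ (π p))⁻¹ * p ∈ Subgroup.center _ :=
        hcentral _ (by rw [map_mul, map_inv, hψ, inv_mul_cancel])
      have hv : (ψ (π q))⁻¹ * q ∈ Subgroup.center _ :=
        hcentral _ (by rw [map_mul, map_inv, hψ, inv_mul_cancel])
      conv_rhs => rw [← mul_inv_cancel_left (ψ (π p)) p, ← mul_inv_cancel_left (ψ (π q)) q,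
        commutator_mul_central _ _ hu hv]
      rw [map_commutatorElement]
    exact h2
  rw [Subgroup.eq_bot_iff_forall]
  intro m hm
  obtain ⟨g, hg⟩ := hcomm m (hσ.2.2 hm)
  have hg1 : g = 1 := by
    have := congrArg π hg
    rwa [hψ, hπmk, MonoidHom.mem_ker.1 hm] at this
  rw [hg1, map_one, eq_comm, hmk, QuotientGroup.mk'_apply, QuotientGroup.eq_one_iff] at hg
  obtain ⟨i, hi⟩ := Subgroup.mem_zpowers_iff.1 hg
  have h1 := congrArg Prod.fst hi
  have h2 := congrArg Prod.snd hi
  simp only [Prod.pow_fst, Prod.pow_snd, hn] at h1 h2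
  rw [← mul_inv, inv_zpow, inv_eq_one, ← pow_two, ← zpow_natCast, ← zpow_mul,
    ← orderOf_dvd_iff_zpow_eq_one, hγo, Nat.cast_mul, Int.mul_dvd_mul_iff_left (by norm_num : ((2 : ℕ) : ℤ) ≠ 0),
    hk, orderOf_dvd_iff_zpow_eq_one] at h2
  rw [← h1, h2]

end Cfsg.Agent.Screen.CosetEnum.Fi23Mult
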