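import Cfsg.Prelude.Def_KGroupFacts
import Cfsg.Agent.Screen.CosetEnum.Fi23Ord.Class
import Cfsg.Agent.Screen.CosetEnum.BraidReduce

/-!
# Canonical lifts of the transpositions of Fi23 to a central extension
-/

set_option autoImplicit false
set_option maxRecDepth 20000

namespace Cfsg.Agent.Screen.CosetEnum.Fi23Mult

open Cfsg.Agent.Screen.CosetEnum Fi23Ord
open scoped commutatorElement

/-- Words conjugating the central involution to the generators. -/
def conjWord : ℕ → List ℕ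
  | 0 => [7, 6, 5, 4, 3, 2, 1, 0, 8, 3, 2, 4, 3, 5, 4, 6, 5, 7, 6, 8, 3, 2, 4, 3, 5, 4, 8, 3, 2, 1]
  | 1 => [7, 6, 5, 4, 3, 2, 1, 8, 3, 2, 4, 3, 5, 4, 6, 5, 7, 6, 8, 3, 2, 4, 3, 5, 4, 8, 3, 2]
  | 2 => [7, 6, 5, 4, 3, 2, 1, 8, 3, 2, 4, 3, 5, 4, 6, 5, 7, 6, 8, 3, 2, 1, 4, 3, 5, 4, 8, 3]
  | 3 => [7, 6, 5, 4, 3, 2, 1, 8, 3, 2, 4, 3, 5, 4, 6, 5, 7, 6, 8, 3, 2, 1, 4, 3, 2, 5, 4, 8]
  | 4 => [7, 6, 5, 4, 3, 2, 1, 8, 3, 2, 4, 3, 5, 4, 6, 5, 7, 6, 8, 3, 2, 1, 4, 3, 2, 5, 8, 3]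
  | 5 => [7, 6, 5, 4, 3, 2, 1, 8, 3, 2, 4, 3, 5, 4, 6, 5, 7, 6, 8, 3, 2, 1, 4, 3, 2, 8, 3, 4]
  | 6 => [7, 6, 5, 4, 3, 2, 1, 8, 3, 2, 4, 3, 5, 4, 6, 5, 7, 8, 3, 2, 1, 4, 3, 2, 8, 3, 4, 5]
  | 7 => [7, 6, 5, 4, 3, 2, 1, 8, 3, 2, 4, 3, 5, 4, 6, 5, 8, 3, 2, 1, 4, 3, 2, 8, 3, 4, 5, 6]
  | 8 => [7, 6, 5, 4, 3, 2, 1, 8, 3, 2, 4, 3, 5, 4, 6, 5, 7, 6, 8, 3, 2, 1, 4, 3, 2, 5, 4, 3]
  | 9 => [7, 6, 5, 4, 3, 2, 8, 3, 4, 5, 6, 7, 9, 8, 3, 2, 4, 3, 5, 4, 6, 5, 8, 3, 2, 4, 3, 8]
  | _ => []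
theorem conjWord_spec {x : ℕ} (hx : x < 10) :
    evalW PresFi23.gens (conjWord x) * zel * (evalW PresFi23.gens (conjWord x))⁻¹ = PresFi23.gens x := by
  have hl := List.all_eq_true.1
    (show (List.range 10).all (fun x => ((conjWord x).reverse ++ zw ++ conjWord x ++ [x]).all (fun y => Nat.blt y 10) &&
      Fi23Fi22.tbl.fixesBase (levels.map Level.pt).reverse ((conjWord x).reverse ++ zw ++ conjWord x ++ [x])) = true by
      decide +kernel) x (List.mem_range.2 hx)
  rw [Bool.and_eq_true] at hl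
  have h := eq_one hl.1 hl.2
  simp only [evalW_append, evalW_reverse PresFi23.gens_sq, evalW, one_mul] at h
  rw [show evalW PresFi23.gens zw = zel from rfl] at h
  have h2 := eq_inv_of_mul_eq_one_right h
  rw [inv_eq_of_mul_eq_one_right (PresFi23.gens_sq x)] at h2
  rw [← h2]
  group

/-- The Fi23 diagram. -/
def braid23 (a b : ℕ) : Bool :=
  decide ((a, b) ∈ [(0, 1), (1, 2), (2, 3), (3, 4), (3, 8), (4, 5), (5, 6), (6, 7), (8, 9),
    (1, 0), (2, 1), (3, 2), (4, 3), (8, 3), (5, 4), (6, 5), (7, 6), (9, 8)])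

theorem gens_comm {a b : ℕ} (ha : a < 10) (hb : b < 10) (h : braid23 a b = false) :
    PresFi23.gens a * PresFi23.gens b = PresFi23.gens b * PresFi23.gens a := by
  have hl := List.all_eq_true.1 (List.all_eq_true.1
    (show (List.range 10).all (fun a => (List.range 10).all (fun b => braid23 a b ||
      ([a, b, a, b].all (fun y => Nat.blt y 10) &&
        Fi23Fi22.tbl.fixesBase (levels.map Level.pt).reverse [a, b, a, b]))) = true by decide +kernel)
    a (List.mem_range.2 ha)) b (List.mem_range.2 hb)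
  rw [Bool.or_eq_true, Bool.and_eq_true, h] at hl
  obtain hl | ⟨h1, h2⟩ := hl
  · exact absurd hl Bool.false_ne_true
  have h3 := eq_one h1 h2
  simp only [evalW, one_mul] at h3
  have h4 : (PresFi23.gens b * PresFi23.gens a)⁻¹ = PresFi23.gens b * PresFi23.gens a :=
    inv_eq_of_mul_eq_one_right (by simpa only [mul_assoc] using h3)
  rw [mul_inv_rev, inv_eq_of_mul_eq_one_right (PresFi23.gens_sq a),
    inv_eq_of_mul_eq_one_right (PresFi23.gens_sq b)] at h4
  exact h4

theorem gens_braid {a b : ℕ} (ha : a < 10) (hb : b < 10) (h : braid23 a b = true) :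
    PresFi23.gens a * PresFi23.gens b * PresFi23.gens a = PresFi23.gens b * PresFi23.gens a * PresFi23.gens b := by
  have hl := List.all_eq_true.1 (List.all_eq_true.1
    (show (List.range 10).all (fun a => (List.range 10).all (fun b => !braid23 a b ||
      ([a, b, a, b, a, b].all (fun y => Nat.blt y 10) &&
        Fi23Fi22.tbl.fixesBase (levels.map Level.pt).reverse [a, b, a, b, a, b]))) = true by decide +kernel)
    a (List.mem_range.2 ha)) b (List.mem_range.2 hb)
  rw [Bool.or_eq_true, Bool.and_eq_true, h] at hl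
  obtain hl | ⟨h1, h2⟩ := hl
  · exact absurd hl (by decide)
  have h3 := eq_one h1 h2
  simp only [evalW, one_mul] at h3
  have h4 : (PresFi23.gens b * PresFi23.gens a * PresFi23.gens b)⁻¹ =
      PresFi23.gens a * PresFi23.gens b * PresFi23.gens a :=
    inv_eq_of_mul_eq_one_right (by simpa only [mul_assoc] using h3)
  rw [mul_inv_rev, mul_inv_rev, inv_eq_of_mul_eq_one_right (PresFi23.gens_sq a),
    inv_eq_of_mul_eq_one_right (PresFi23.gens_sq b), ← mul_assoc] at h4
  exact h4.symm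

theorem stab_perfect : commutator stab = ⊤ := by
  obtain ⟨hc, ⟨q⟩⟩ := center_eq
  obtain ⟨hs, hcard⟩ := Fi22Ord.isSimple_and_card
  haveI : IsSimpleGroup Cfsg.Spor.Fi22 := hs
  haveI : Finite stab := inferInstance
  set π : stab →* Cfsg.Spor.Fi22 := q.toMonoidHom.comp (QuotientGroup.mk' (Subgroup.center stab)) with hπdef
  have hπ : Function.Surjective π := q.surjective.comp (QuotientGroup.mk'_surjective _)
  have hker : π.ker = Subgroup.center stab := by
    ext g
    rw [MonoidHom.mem_ker, ← QuotientGroup.eq_one_iff g, hπdef]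
    exact q.map_eq_one_iff
  have hperf : commutator Cfsg.Spor.Fi22 = ⊤ := by
    rcases (inferInstance : (commutator Cfsg.Spor.Fi22).Normal).eq_bot_or_eq_top with h | h
    · exfalso
      rw [commutator_eq_bot_iff_center_eq_top] at h
      letI : CommGroup Cfsg.Spor.Fi22 :=
        { (inferInstance : Group Cfsg.Spor.Fi22) with
          mul_comm := fun a b => (Subgroup.mem_center_iff.1 (h ▸ Subgroup.mem_top b) a) }
      have := IsSimpleGroup.prime_card (α := Cfsg.Spor.Fi22)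
      rw [hcard] at this
      exact absurd this (by norm_num)
    · exact h
  have hsup : commutator stab ⊔ Subgroup.center stab = ⊤ := by
    rw [← hker, ← Subgroup.comap_map_eq, commutator_def, Subgroup.map_commutator, Subgroup.map_top_of_surjective _ hπ,
      ← commutator_def, hperf, Subgroup.comap_top]
  by_contra hne
  have hinf : Subgroup.center stab ⊓ commutator stab = ⊥ := by
    rw [eq_bot_iff]
    intro g hg
    rw [hc] at hg
    obtain ⟨⟨k, rfl⟩, hgc⟩ := Subgroup.mem_inf.1 hg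
    have h2 : zs ^ (2 : ℤ) = 1 := by rw [zpow_two, zs_sq]
    rcases Int.even_or_odd k with ⟨j, rfl⟩ | ⟨j, rfl⟩
    · rw [Subgroup.mem_bot]
      dsimp only
      rw [← two_mul, zpow_mul, h2, one_zpow]
    · exfalso
      apply hne
      rw [← hsup, eq_comm, sup_eq_left, hc, Subgroup.zpowers_le]
      have : zs ^ (2 * j + 1) = zs := by rw [zpow_add, zpow_mul, h2, one_zpow, one_mul, zpow_one]
      dsimp only at hgc
      rwa [this] at hgc
  refine nonsplit (commutator stab) (Subgroup.isComplement'_of_disjoint_and_mul_eq_univ (disjoint_iff.2 hinf) ?_)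
  rw [← Subgroup.normal_mul, sup_comm, hsup, Subgroup.coe_top]

variable {E : Type*} [Group E] {σ : E →* Cfsg.Spor.Fi23}

theorem fixes_lift (hs : Function.Surjective σ) (hker : σ.ker ≤ Subgroup.center E) {zt : E} (hzt : σ zt = zel)
    {u : E} (hu : σ u ∈ stab) : u * zt * u⁻¹ = zt := by
  have hscal : ∀ a : E, σ a ∈ stab → ∃ m ∈ Subgroup.center E, a * zt * a⁻¹ = m * zt := by
    intro a ha
    refine ⟨a * zt * a⁻¹ * zt⁻¹, hker ?_, by group⟩
    rw [MonoidHom.mem_ker, map_mul, map_mul, map_mul, map_inv, map_inv, hzt,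
      ← Subgroup.mem_centralizer_iff.1 (stab_le_centralizer ha) zel rfl]
    group
  set C : Subgroup E := Subgroup.centralizer {zt} with hC
  have hmem : ∀ a : E, a ∈ C ↔ a * zt * a⁻¹ = zt := fun a => by
    rw [hC, Subgroup.mem_centralizer_singleton_iff, mul_inv_eq_iff_eq_mul]
  have hle : stab ≤ C.map σ := by
    rw [← stab.range_subtype, MonoidHom.range_eq_map, ← stab_perfect, commutator_eq_closure, MonoidHom.map_closure,
      Subgroup.closure_le]
    rintro _ ⟨_, ⟨⟨p, hp⟩, ⟨q, hq⟩, rfl⟩, rfl⟩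
    obtain ⟨a, rfl⟩ := hs p
    obtain ⟨b, rfl⟩ := hs q
    obtain ⟨m, hm, hma⟩ := hscal a hp
    obtain ⟨n, hn, hnb⟩ := hscal b hq
    refine ⟨⁅a, b⁆, (hmem _).2 ?_, by simp [commutatorElement_def]⟩
    have hma' : a⁻¹ * zt * a = m⁻¹ * zt := by
      calc a⁻¹ * zt * a = a⁻¹ * (m⁻¹ * (m * zt)) * a := by rw [inv_mul_cancel_left]
        _ = a⁻¹ * (m⁻¹ * (a * zt * a⁻¹)) * a := by rw [hma]
        _ = m⁻¹ * zt := by
          rw [← mul_assoc, Subgroup.mem_center_iff.1 (inv_mem hm) a⁻¹]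
          group
    have hnb' : b⁻¹ * zt * b = n⁻¹ * zt := by
      calc b⁻¹ * zt * b = b⁻¹ * (n⁻¹ * (n * zt)) * b := by rw [inv_mul_cancel_left]
        _ = b⁻¹ * (n⁻¹ * (b * zt * b⁻¹)) * b := by rw [hnb]
        _ = n⁻¹ * zt := by
          rw [← mul_assoc, Subgroup.mem_center_iff.1 (inv_mem hn) b⁻¹]
          group
    have hc := fun (t : E) (ht : t ∈ Subgroup.center E) (g : E) => Subgroup.mem_center_iff.1 ht g
    calc ⁅a, b⁆ * zt * ⁅a, b⁆⁻¹ = a * (b * (a⁻¹ * (b⁻¹ * zt * b) * a) * b⁻¹) * a⁻¹ := by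
          rw [commutatorElement_def]; group
      _ = a * (b * (a⁻¹ * (n⁻¹ * zt) * a) * b⁻¹) * a⁻¹ := by rw [hnb']
      _ = a * (b * (n⁻¹ * (a⁻¹ * zt * a)) * b⁻¹) * a⁻¹ := by
          rw [← mul_assoc a⁻¹, hc n⁻¹ (inv_mem hn) a⁻¹]; group
      _ = a * (b * (n⁻¹ * (m⁻¹ * zt)) * b⁻¹) * a⁻¹ := by rw [hma']
      _ = a * (n⁻¹ * m⁻¹ * (b * zt * b⁻¹)) * a⁻¹ := by
          rw [← mul_assoc n⁻¹, ← mul_assoc b, hc (n⁻¹ * m⁻¹) (mul_mem (inv_mem hn) (inv_mem hm)) b]; group
      _ = a * (n⁻¹ * m⁻¹ * (n * zt)) * a⁻¹ := by rw [hnb]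
      _ = a * (m⁻¹ * zt) * a⁻¹ := by
          rw [show n⁻¹ * m⁻¹ * (n * zt) = n⁻¹ * (m⁻¹ * n) * zt by group, hc n hn m⁻¹]; group
      _ = m⁻¹ * (a * zt * a⁻¹) := by rw [← mul_assoc a, hc m⁻¹ (inv_mem hm) a]; group
      _ = zt := by rw [hma, inv_mul_cancel_left]
  obtain ⟨k, hk, hku⟩ := hle hu
  have hm : k⁻¹ * u ∈ Subgroup.center E := hker (by rw [MonoidHom.mem_ker, map_mul, map_inv, hku, inv_mul_cancel])
  have hu' : k⁻¹ * u ∈ C := (hmem _).2 (by rw [← Subgroup.mem_center_iff.1 hm zt, mul_inv_cancel_right])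
  have := (hmem _).1 (mul_mem hk hu')
  rwa [mul_inv_cancel_left] at this

theorem conj_unique (hs : Function.Surjective σ) (hker : σ.ker ≤ Subgroup.center E) {zt : E} (hzt : σ zt = zel)
    {u v : E} (h : σ u * zel * (σ u)⁻¹ = σ v * zel * (σ v)⁻¹) : u * zt * u⁻¹ = v * zt * v⁻¹ := by
  have hm : σ (v⁻¹ * u) ∈ stab := by
    rw [← centralizer_eq, Subgroup.mem_centralizer_singleton_iff, map_mul, map_inv]
    calc (σ v)⁻¹ * σ u * zel = (σ v)⁻¹ * (σ u * zel * (σ u)⁻¹) * σ u := by group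
      _ = (σ v)⁻¹ * (σ v * zel * (σ v)⁻¹) * σ u := by rw [h]
      _ = zel * ((σ v)⁻¹ * σ u) := by group
  have h2 := fixes_lift hs hker hzt hm
  calc u * zt * u⁻¹ = v * (v⁻¹ * u * zt * (v⁻¹ * u)⁻¹) * v⁻¹ := by group
    _ = v * zt * v⁻¹ := by rw [h2]

/-- Lifts of the generators: they square to one central element and satisfy the Coxeter relations. -/
theorem exists_lifts (hs : Function.Surjective σ) (hker : σ.ker ≤ Subgroup.center E) :
    ∃ (c : E) (L : ℕ → E), c ∈ σ.ker ∧ (∀ x < 10, σ (L x) = PresFi23.gens x) ∧ (∀ x < 10, L x * L x = c) ∧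
      (∀ a b, a < 10 → b < 10 → braid23 a b = false → L a * L b = L b * L a) ∧
      (∀ a b, a < 10 → b < 10 → braid23 a b = true → L a * L b * L a = L b * L a * L b) := by
  obtain ⟨zt, hzt⟩ := hs zel
  choose U hU using fun x => hs (evalW PresFi23.gens (conjWord x))
  set L : ℕ → E := fun x => U x * zt * (U x)⁻¹ with hLdef
  have hσ : ∀ x < 10, σ (L x) = PresFi23.gens x := fun x hx => by
    simp only [hLdef, map_mul, map_inv, hU, hzt]
    exact conjWord_spec hx
  have hc : zt * zt ∈ σ.ker := by rw [MonoidHom.mem_ker, map_mul, hzt, zel_sq]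
  have hcz : zt * zt ∈ Subgroup.center E := hker hc
  refine ⟨zt * zt, L, hc, hσ, fun x _ => ?_, fun a b ha hb h => ?_, fun a b ha hb h => ?_⟩
  · calc L x * L x = U x * (zt * zt) * (U x)⁻¹ := by simp only [hLdef]; group
      _ = zt * zt := by rw [Subgroup.mem_center_iff.1 hcz, mul_inv_cancel_right]
  · have hconj : L b * L a * (L b)⁻¹ = L a := by
      have h1 := conj_unique hs hker hzt (u := L b * U a) (v := U a) (by
        rw [map_mul, hσ b hb, hU]
        calc PresFi23.gens b * evalW PresFi23.gens (conjWord a) * zel *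
              (PresFi23.gens b * evalW PresFi23.gens (conjWord a))⁻¹
            = PresFi23.gens b * (evalW PresFi23.gens (conjWord a) * zel * (evalW PresFi23.gens (conjWord a))⁻¹) *
              (PresFi23.gens b)⁻¹ := by group
          _ = PresFi23.gens a := by rw [conjWord_spec ha, ← gens_comm ha hb h, mul_inv_cancel_right]
          _ = _ := (conjWord_spec ha).symm)
      rw [← show U a * zt * (U a)⁻¹ = L a from rfl]
      calc L b * (U a * zt * (U a)⁻¹) * (L b)⁻¹ = L b * U a * zt * (L b * U a)⁻¹ := by group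
        _ = _ := h1
    exact (mul_inv_eq_iff_eq_mul.1 hconj).symm
  · have h1 := conj_unique hs hker hzt (u := L a * U b) (v := L b * U a) (by
      rw [map_mul σ (L a) (U b), map_mul σ (L b) (U a), hσ a ha, hσ b hb, hU, hU]
      calc PresFi23.gens a * evalW PresFi23.gens (conjWord b) * zel *
            (PresFi23.gens a * evalW PresFi23.gens (conjWord b))⁻¹
          = PresFi23.gens a * (evalW PresFi23.gens (conjWord b) * zel * (evalW PresFi23.gens (conjWord b))⁻¹) *
            (PresFi23.gens a)⁻¹ := by group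
        _ = PresFi23.gens b * PresFi23.gens a * (PresFi23.gens b)⁻¹ := by
          rw [conjWord_spec hb, inv_eq_of_mul_eq_one_right (PresFi23.gens_sq a),
            inv_eq_of_mul_eq_one_right (PresFi23.gens_sq b), gens_braid ha hb h]
        _ = PresFi23.gens b * (evalW PresFi23.gens (conjWord a) * zel * (evalW PresFi23.gens (conjWord a))⁻¹) *
            (PresFi23.gens b)⁻¹ := by rw [conjWord_spec ha]
        _ = _ := by group)
    have h2 : L a * L b * (L a)⁻¹ = L b * L a * (L b)⁻¹ := by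
      calc L a * L b * (L a)⁻¹ = L a * U b * zt * (L a * U b)⁻¹ := by simp only [hLdef]; group
        _ = L b * U a * zt * (L b * U a)⁻¹ := h1
        _ = L b * L a * (L b)⁻¹ := by simp only [hLdef]; group
    have hsq : ∀ x, (L x)⁻¹ * (zt * zt) = L x := fun x => by
      rw [show zt * zt = L x * L x from by
        calc zt * zt = U x * (zt * zt) * (U x)⁻¹ := by rw [Subgroup.mem_center_iff.1 hcz, mul_inv_cancel_right]
          _ = L x * L x := by simp only [hLdef]; group, inv_mul_cancel_left]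
    calc L a * L b * L a = L a * L b * ((L a)⁻¹ * (zt * zt)) := by rw [hsq]
      _ = L a * L b * (L a)⁻¹ * (zt * zt) := by group
      _ = L b * L a * (L b)⁻¹ * (zt * zt) := by rw [h2]
      _ = L b * L a * ((L b)⁻¹ * (zt * zt)) := by group
      _ = L b * L a * L b := by rw [hsq]

end Cfsg.Agent.Screen.CosetEnum.Fi23Mult
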