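import Cfsg.Agent.Screen.CosetEnum.Base

/-!
# Orbit bound for a subgroup given by words
-/

set_option autoImplicit false

namespace Cfsg.Agent.Screen.CosetEnum

variable {T : Tab}

/-- The product of the orbit lengths bounds the order of a group containing all the words. -/
theorem Tab.Checked.card_base_words (hT : T.Checked) (K : Subgroup (Equiv.Perm (Fin T.n)))
    :
    ∀ (Ls : List Level) (prev : List ℕ), (∀ L ∈ Ls, ∀ w ∈ L.kw, evalW hT.perm w ∈ K) → T.levelsOK Ls prev = true →
      (∀ L ∈ Ls, (T.grow L.kw L.chain (addBit 0 L.pt)).isSome = true) →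
      (Ls.map fun L => L.chain.length + 1).prod * Nat.card (fixPts K ((Ls.map Level.pt).reverse ++ prev)) ≤
        Nat.card (fixPts K prev) := by
  intro Ls
  induction Ls with
  | nil => intro prev _ _ _; simp
  | cons L Ls ih =>
    intro prev hwords hok hch
    simp only [Tab.levelsOK, Bool.and_eq_true, List.all_eq_true, Nat.blt_eq] at hok
    obtain ⟨⟨hkw, hpt⟩, hrest⟩ := hok
    have h2 := ih (L.pt :: prev) (fun M hM => hwords M (List.mem_cons_of_mem _ hM)) hrest fun M hM => hch M (List.mem_cons_of_mem _ hM)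
    rw [List.map_cons, List.prod_cons, List.map_cons, List.reverse_cons, List.append_assoc, List.singleton_append,
      Nat.mul_assoc]
    refine le_trans (Nat.mul_le_mul le_rfl h2) ?_
    set S := fixPts K prev with hS
    set p : Fin T.n := ⟨L.pt, hpt⟩
    have hmem : ∀ w ∈ L.kw, evalW hT.perm w ∈ S := by
      intro w hw
      refine mem_fixPts (hwords L List.mem_cons_self w hw) fun q hq h => Fin.ext ?_
      rw [hT.app_eq w (hkw w hw).1]
      exact Nat.eq_of_beq_eq_true ((hkw w hw).2 q hq)
    obtain ⟨s', hs'⟩ := Option.isSome_iff_exists.1 (hch L List.mem_cons_self)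
    obtain ⟨B, hB, hBS⟩ := hT.grow_spec (fun w hw => (hkw w hw).1) S hmem p L.chain _ s' {p} hs'
      (fun c hc => by
        rw [bit_addBit, bit_eq, Nat.zero_testBit, Bool.false_or, decide_eq_true_iff] at hc
        subst hc
        exact ⟨hpt, Finset.mem_singleton_self _⟩)
      (fun c hc => by
        rw [Finset.mem_singleton] at hc
        subst hc
        rw [bit_addBit, decide_eq_true (show L.pt = ((p : Fin T.n) : ℕ) from rfl), Bool.or_true])
      (fun c hc => ⟨1, one_mem _, by rw [Finset.mem_singleton] at hc; subst hc; rfl⟩)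
    choose σ hσS hσp using hBS
    have hsub : fixPts K (L.pt :: prev) = S ⊓ MulAction.stabilizer (Equiv.Perm (Fin T.n)) p := by
      rw [fixPts, dif_pos hpt]
    rw [hsub]
    let φ : ↥B × ↥(S ⊓ MulAction.stabilizer (Equiv.Perm (Fin T.n)) p) → S :=
      fun z => ⟨σ z.1.1 z.1.2 * z.2.1, mul_mem (hσS _ _) z.2.2.1⟩
    have hφ : Function.Injective φ := by
      rintro ⟨⟨b, hb⟩, ⟨u, hu⟩⟩ ⟨⟨c, hc⟩, ⟨v, hv⟩⟩ h
      have h' : σ b hb * u = σ c hc * v := congrArg Subtype.val h
      have hup : u p = p := MulAction.mem_stabilizer_iff.1 hu.2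
      have hvp : v p = p := MulAction.mem_stabilizer_iff.1 hv.2
      have hbc : b = c := by
        have := congrArg (fun τ : Equiv.Perm (Fin T.n) => τ p) h'
        simp only [Equiv.Perm.mul_apply] at this
        rwa [hup, hvp, hσp, hσp] at this
      subst hbc
      exact Prod.ext rfl (Subtype.ext (mul_left_cancel h'))
    have h3 := Nat.card_le_card_of_injective φ hφ
    rw [Nat.card_prod, Nat.card_eq_finsetCard, hB, Finset.card_singleton] at h3
    exact le_trans (le_of_eq (by rw [Nat.add_comm])) h3

end Cfsg.Agent.Screen.CosetEnum
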