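import Cfsg.Agent.Screen.CosetEnum.OrderGlue
import Cfsg.Agent.Screen.CosetEnum.Linked
import Cfsg.Agent.Screen.CosetEnum.BraidReduce
import Cfsg.Agent.Screen.CosetEnum.Fi23Mult.Canon
import Cfsg.Agent.Screen.CosetEnum.Fi23Mult.Moves
import Cfsg.Agent.Screen.CosetEnum.Fi23Mult.SubBase
import Cfsg.Agent.Screen.CosetEnum.Fi23Mult.BaseCheck
import Cfsg.Agent.Screen.CosetEnum.Fi23Mult.BRE.Checked
import Cfsg.Agent.Screen.CosetEnum.Fi23Mult.BRT.Checked

/-!
# The spider relation in a central extension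
-/

set_option autoImplicit false
set_option maxRecDepth 20000

namespace Cfsg.Agent.Screen.CosetEnum.Fi23Mult

open Cfsg.Agent.Screen.CosetEnum

/-- Short move lists settling the Coxeter relators. -/
def coxOK (w : List ℕ) : Bool :=
  reducesTo 10 braid23 [] w || reducesTo 10 braid23 [(0, 0)] w ||
  reducesTo 10 braid23 [(1, 0), (0, 1), (0, 0)] w || reducesTo 10 braid23 [(2, 0), (0, 2), (0, 1), (0, 0)] w

/-- Numbering of the generators c, …, j. -/
def mE8 : ℕ → ℕ
  | 0 => 2
  | 1 => 3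
  | 2 => 4
  | 3 => 5
  | 4 => 6
  | 5 => 7
  | 6 => 8
  | 7 => 9
  | _ => 10

/-- Numbering of the generators b, …, j. -/
def mT : ℕ → ℕ
  | 0 => 1
  | 1 => 2
  | 2 => 3
  | 3 => 4
  | 4 => 5
  | 5 => 6
  | 6 => 7
  | 7 => 8
  | 8 => 9
  | _ => 10

variable {E : Type*} [Group E] {y : ℕ → E}

theorem coxOK_spec (hsq : ∀ x, y x * y x = 1)
    (hc : ∀ a b, a < 10 → b < 10 → braid23 a b = false → a ≠ b → y a * y b = y b * y a)
    (hb : ∀ a b, a < 10 → b < 10 → braid23 a b = true → y a * y b * y a = y b * y a * y b)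
    {w : List ℕ} (h : coxOK w = true) : evalW y w = 1 := by
  simp only [coxOK, Bool.or_eq_true] at h
  rcases h with ((h | h) | h) | h <;> exact eq_one_of_reducesTo hsq hc hb _ _ h

theorem spider_eq_one [Finite E] (π : E →* Cfsg.Spor.Fi23) (hsq : ∀ x, y x * y x = 1)
    (hout : ∀ x, 10 ≤ x → y x = 1) (hπy : ∀ x < 10, π (y x) = PresFi23.gens x)
    (hc : ∀ a b, a < 10 → b < 10 → braid23 a b = false → a ≠ b → y a * y b = y b * y a)
    (hb : ∀ a b, a < 10 → b < 10 → braid23 a b = true → y a * y b * y a = y b * y a * y b)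
    (hcent : ∀ g : E, π g = 1 → g ∈ Subgroup.center E) : evalW y spider = 1 := by
  have hev : ∀ w : List ℕ, (∀ x ∈ w, x < 10) → π (evalW y w) = evalW PresFi23.gens w := by
    intro w
    induction w with
    | nil => simp [evalW]
    | cons a w ih =>
      intro hw
      rw [evalW, evalW, map_mul, ih (fun x hx => hw x (List.mem_cons_of_mem _ hx)), hπy a (hw a List.mem_cons_self)]
  set s := evalW y spider with hs
  have hπs : π s = 1 := by
    rw [hs, hev _ (by decide +kernel)]
    exact Fi23Ord.eq_one (by decide +kernel) (by decide +kernel)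
  have hsc : s ∈ Subgroup.center E := hcent s hπs
  have hs3 : s ^ 3 = 1 := by
    have h := eq_one_of_reducesTo hsq hc hb movesB tripleWord (by decide +kernel)
    rw [show tripleWord = spider ++ [9, 8, 5, 2] ++ spider ++ [9, 8, 5, 2].reverse ++ [3, 4, 2, 3] ++ spider ++
      [3, 4, 2, 3].reverse from rfl] at h
    simp only [evalW_append, evalW_reverse hsq, ← hs] at h
    generalize evalW y [9, 8, 5, 2] = p, evalW y [3, 4, 2, 3] = q at h
    have e : ∀ g t : E, g⁻¹ * (s * (g * t)) = s * t := fun g t => by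
      rw [← mul_assoc s, ← Subgroup.mem_center_iff.1 hsc g, mul_assoc, inv_mul_cancel_left]
    rw [← h]
    simp only [mul_assoc, e, pow_succ, pow_zero, one_mul]
  -- the subgroup of b, …, j
  have hcox : ∀ {ws : List (List ℕ)} (m : ℕ → ℕ), ws.all (fun w => coxOK (w.map m)) = true →
      ∀ w ∈ ws, evalW (fun x => y (m x)) w = 1 := fun m h w hw => by
    rw [evalW_map]
    exact coxOK_spec hsq hc hb (List.all_eq_true.1 h w hw)
  obtain ⟨f0, b0⟩ := Fi23Ord.F23L0.checked.card_le (fun x => y (Fi23Ord.mF23L0 x)) (fun x => hsq _)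
    (hout _ (by decide)) (hcox Fi23Ord.mF23L0 (by decide +kernel))
    (Subgroup.closure {g | ∃ x < Fi23Ord.F23L0.tbl.ng, g = y (Fi23Ord.mF23L0 x)}) ⊥ rfl
    (closure_nil (fun x => y (Fi23Ord.mF23L0 x))) inferInstance
  obtain ⟨f1, b1⟩ := Fi23Ord.F23L1.checked.card_le (fun x => y (Fi23Ord.mF23L1 x)) (fun x => hsq _)
    (hout _ (by decide)) (hcox Fi23Ord.mF23L1 (by decide +kernel))
    (Subgroup.closure {g | ∃ x < Fi23Ord.F23L1.tbl.ng, g = y (Fi23Ord.mF23L1 x)}) _ rfl
    (closure_chain y Fi23Ord.mF23L0 Fi23Ord.mF23L1 Fi23Ord.F23L0.tbl.ng Fi23Ord.F23L1.tbl.subs (by decide +kernel)).symm f0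
  obtain ⟨f2, b2⟩ := Fi23Ord.F23L2.checked.card_le (fun x => y (Fi23Ord.mF23L2 x)) (fun x => hsq _)
    (hout _ (by decide)) (hcox Fi23Ord.mF23L2 (by decide +kernel))
    (Subgroup.closure {g | ∃ x < Fi23Ord.F23L2.tbl.ng, g = y (Fi23Ord.mF23L2 x)}) _ rfl
    (closure_chain y Fi23Ord.mF23L1 Fi23Ord.mF23L2 Fi23Ord.F23L1.tbl.ng Fi23Ord.F23L2.tbl.subs (by decide +kernel)).symm f1
  obtain ⟨f3, b3⟩ := BRE.checked.card_le (fun x => y (mE8 x)) (fun x => hsq _)
    (hout _ (by decide)) (hcox mE8 (by decide +kernel))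
    (Subgroup.closure {g | ∃ x < BRE.tbl.ng, g = y (mE8 x)}) _ rfl
    (closure_chain y Fi23Ord.mF23L2 mE8 Fi23Ord.F23L2.tbl.ng BRE.tbl.subs (by decide +kernel)).symm f2
  have hrelT : ∀ w ∈ BRT.tbl.rels, evalW (fun x => y (mT x)) w = 1 := by
    intro w hw
    rw [evalW_map]
    have h : coxOK (w.map mT) = true ∨ ∃ x ∈ List.range 10, w.map mT = spider ++ [x] ++ spider.reverse ++ [x] :=
      of_decide_eq_true (List.all_eq_true.1
        (show BRT.tbl.rels.all (fun w => decide (coxOK (w.map mT) = true ∨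
          ∃ x ∈ List.range 10, w.map mT = spider ++ [x] ++ spider.reverse ++ [x])) = true by decide +kernel) w hw)
    rcases h with h | ⟨x, -, h⟩
    · exact coxOK_spec hsq hc hb h
    · rw [h]
      simp only [evalW_append, evalW_reverse hsq, evalW, one_mul, ← hs]
      have hcx : y x * s⁻¹ = s⁻¹ * y x := Subgroup.mem_center_iff.1 (inv_mem hsc) (y x)
      simp only [← mul_assoc]
      rw [hcx]
      rw [mul_assoc s⁻¹, hsq, mul_one, inv_mul_cancel]
  obtain ⟨f4, b4⟩ := BRT.linked.card_le (fun x => y (mT x)) (fun x => hsq _)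
    (hout _ (by decide)) hrelT
    (Subgroup.closure {g | ∃ x < BRT.tbl.ng, g = y (mT x)}) _ rfl
    (closure_chain y mE8 mT BRE.tbl.ng BRT.tbl.subs (by decide +kernel)).symm f3
  rw [Subgroup.card_bot, show Fi23Ord.F23L0.tbl.n = 720 from rfl] at b0
  rw [show Fi23Ord.F23L1.tbl.n = 32 from rfl] at b1
  rw [show Fi23Ord.F23L2.tbl.n = 126 from rfl] at b2
  rw [show BRE.tbl.n = 240 from rfl] at b3
  rw [show BRT.tbl.n = 28431 from rfl] at b4
  set T := Subgroup.closure {g | ∃ x < BRT.tbl.ng, g = y (mT x)} with hT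
  -- the image is large
  have hyT : ∀ x, 1 ≤ x → x < 10 → y x ∈ T := fun x h1 h2 =>
    Subgroup.subset_closure ⟨x - 1, by change x - 1 < 9; omega, by
      obtain rfl | rfl | rfl | rfl | rfl | rfl | rfl | rfl | rfl :
        x = 1 ∨ x = 2 ∨ x = 3 ∨ x = 4 ∨ x = 5 ∨ x = 6 ∨ x = 7 ∨ x = 8 ∨ x = 9 := by omega
      all_goals rfl⟩
  set φ : T →* Equiv.Perm (Fin Fi23Fi22.tbl.n) := (Fi23Ord.act.comp π).comp T.subtype with hφ
  have hlow : 9904359628800 ≤ Nat.card φ.range := by
    have hb' := Fi23Fi22.checked.card_base_words φ.range levels [] (by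
      intro L hL w hw
      have hl := List.all_eq_true.1 (List.all_eq_true.1
        (show levels.all (fun L => L.kw.all fun w => w.all fun x => Nat.blt 0 x && Nat.blt x 10) = true by
          decide +kernel) L hL) w hw
      clear hw
      induction w with
      | nil => exact one_mem _
      | cons a w ih =>
        simp only [List.all_cons, Bool.and_eq_true, Nat.blt_eq] at hl
        rw [evalW]
        refine mul_mem (ih hl.2) (MonoidHom.mem_range.2 ⟨⟨y a, hyT a hl.1.1 hl.1.2⟩, ?_⟩)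
        change Fi23Ord.act (π (y a)) = _
        rw [hπy a hl.1.2, Fi23Ord.act_gens a hl.1.2]) levels_ok levels_grow
    rw [List.append_nil, levels_prod] at hb'
    have hpos : 0 < Nat.card (fixPts φ.range (levels.map Level.pt).reverse) := Nat.card_pos
    have hr : Nat.card (fixPts φ.range []) = Nat.card φ.range := rfl
    rw [hr] at hb'
    exact le_trans (Nat.le_mul_of_pos_right _ hpos) hb'
  have hsT : s ∈ T := by
    have : ∀ w : List ℕ, (∀ x ∈ w, 1 ≤ x ∧ x < 10) → evalW y w ∈ T := by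
      intro w
      induction w with
      | nil => intro _; exact one_mem _
      | cons a w ih =>
        intro hw
        exact mul_mem (ih fun x hx => hw x (List.mem_cons_of_mem _ hx))
          (hyT a (hw a List.mem_cons_self).1 (hw a List.mem_cons_self).2)
    exact this spider (by decide +kernel)
  have hker : (⟨s, hsT⟩ : T) ∈ φ.ker := by
    rw [MonoidHom.mem_ker]
    change Fi23Ord.act (π s) = 1
    rw [hπs, map_one]
  by_contra hne
  haveI : Fact (Nat.Prime 3) := ⟨Nat.prime_three⟩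
  have h3 : orderOf (⟨s, hsT⟩ : T) = 3 :=
    orderOf_eq_prime (Subtype.ext hs3) (fun h => hne (congrArg Subtype.val h))
  have hdvd : 3 ∣ Nat.card φ.ker := by
    have := orderOf_dvd_natCard (⟨_, hker⟩ : φ.ker)
    rwa [← Subgroup.orderOf_coe, h3] at this
  have hk : 3 ≤ Nat.card φ.ker := Nat.le_of_dvd Nat.card_pos hdvd
  have hTc : Nat.card T = Nat.card φ.range * Nat.card φ.ker := by
    rw [← φ.ker.index_mul_card, Subgroup.index_ker]
  have h9 : 9904359628800 * 3 ≤ Nat.card T := hTc ▸ Nat.mul_le_mul hlow hk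
  omega

end Cfsg.Agent.Screen.CosetEnum.Fi23Mult
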